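import Cfsg.Agent.H883.C7.NIface
set_option linter.all false

/-!
# The slot operator (task 1576, helper734, plan of helper883)
-/

set_option autoImplicit false
set_option linter.unusedSectionVars false

namespace Cfsg.Agent.H734.C7

open QuadraticMap hiding proj
open Cfsg.Agent.LieClassical.OrthCore Cfsg.Agent.LieClassical.OrthTrans
open Cfsg.Agent.H882.Ten Cfsg.Agent.LieClassical.OrthFinite
open Cfsg.Agent.H883.C7

section alg

variable {F : Type*} [Field F] {A : Type*} [Ring A] [Algebra F A]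

/-- twice the even part -/
def E2 (w T n : A) (c : F) : A :=
  (-2 : F) • (n * T * n + c • (w * T + T * w)) + (2 * c * c : F) • (w * T * w)

theorem E2_eq (w T n : A) (c : F) :
    (1 + n - c • w) * T * (1 - n - c • w) + (1 - n - c • w) * T * (1 + n - c • w) - (2 : F) • T =
      E2 w T n c := by
  unfold E2
  simp only [add_mul, mul_add, sub_mul, mul_sub, one_mul, mul_one, smul_mul_assoc, mul_smul_comm,
    mul_assoc]
  module

theorem E2_par (w T n m : A) (a b : F) :
    E2 w T (n + m) (a + b) + E2 w T (n - m) (a + b) - (E2 w T n a + E2 w T n a) - (E2 w T m b + E2 w T m b) =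
      (8 * a * b) • (w * T * w) := by
  unfold E2
  simp only [add_mul, mul_add, sub_mul, mul_sub, mul_assoc]
  module

theorem E2_smul (w T n : A) (a c : F) :
    E2 w T (a • n) (a * a * c) =
      (-2 * a * a : F) • (n * T * n + c • (w * T + T * w)) + (2 * a * a * a * a * c * c : F) • (w * T * w) := by
  unfold E2
  simp only [smul_mul_assoc, mul_smul_comm, smul_smul]
  module

theorem E2_quart (w T n : A) (a b c : F) (hab : a * b = 1) :
    E2 w T ((a + b) • n) ((a + b) * (a + b) * c) - E2 w T (a • n) (a * a * c) - E2 w T (b • n) (b * b * c) -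
      (E2 w T ((2 : F) • n) (2 * 2 * c) - E2 w T ((1 : F) • n) (1 * 1 * c) - E2 w T ((1 : F) • n) (1 * 1 * c)) =
      (8 * (a - b) * (a - b) * c * c) • (w * T * w) := by
  rw [E2_smul, E2_smul, E2_smul, E2_smul, E2_smul]
  generalize n * T * n + c • (w * T + T * w) = X
  generalize w * T * w = Y
  match_scalars
  · linear_combination (-4) * hab
  · linear_combination (8 * a * a + 8 * b * b + 12 * (a * b + 1) + 16) * c * c * hab

end alg

section ex

variable {F : Type*} [Field F] {V : Type*} [AddCommGroup V] [Module F V] {q : QuadraticForm F V}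

theorem exists_two (h2 : (2 : F) ≠ 0) (hq : Nondeg q) (hd : 4 ≤ Module.finrank F V) {u : V} (hu : q u = 0)
    (hu0 : u ≠ 0) :
    ∃ x y, polar q u x = 0 ∧ polar q u y = 0 ∧ polar q x y = 0 ∧ q x ≠ 0 ∧ q y ≠ 0 := by
  obtain ⟨u', hyp⟩ := LieClassical.OrthTrans.exists_hyp hq hu hu0
  obtain ⟨x, hx1, hx2, hx3⟩ := H882.Ten.exists_nonsing_perp hq (by omega) hyp
  obtain ⟨a, ha0, ha⟩ := exists_perp_ne (Q := q) ![u, u', x] (by omega)
  have ha1 : polar q u a = 0 := ha 0
  have ha2 : polar q u' a = 0 := ha 1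
  have ha3 : polar q x a = 0 := ha 2
  obtain ⟨c, hc⟩ := hq.exists_polar_eq ha0 1
  have hx0 : 2 * q x ≠ 0 := mul_ne_zero h2 hx3
  let d : V := c - polar q u' c • u - polar q u c • u' - (polar q x c / (2 * q x)) • x
  have hau : polar q a u = 0 := by rw [polar_comm]; exact ha1
  have hau' : polar q a u' = 0 := by rw [polar_comm]; exact ha2
  have hax : polar q a x = 0 := by rw [polar_comm]; exact ha3
  have hxu : polar q x u = 0 := by rw [polar_comm]; exact hx1
  have hxu' : polar q x u' = 0 := by rw [polar_comm]; exact hx2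
  have hd1 : polar q u d = 0 := by
    simp only [d, polar_sub_right, polar_smul_right, hyp.pair, hx1, polar_self_of_sing hu, smul_eq_mul]
    ring
  have hd2 : polar q x d = 0 := by
    simp only [d, polar_sub_right, polar_smul_right, hxu, hxu', polar_self', smul_eq_mul]
    field_simp
    ring
  have hd3 : polar q a d = 1 := by
    simp only [d, polar_sub_right, polar_smul_right, hau, hau', hax, hc, smul_eq_mul]
    ring
  rcases exists_nonsing hd3 with h | h | h
  · exact ⟨x, a, hx1, ha1, ha3, hx3, h⟩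
  · exact ⟨x, d, hx1, hd1, hd2, hx3, h⟩
  · exact ⟨x, a + d, hx1, by rw [polar_add_right, ha1, hd1, add_zero],
      by rw [polar_add_right, ha3, hd2, add_zero], hx3, h⟩

end ex

variable {F : Type*} [Field F] {κ : Type*} [Fintype κ] [DecidableEq κ] {ι : Type*} [Fintype ι] [DecidableEq ι]

theorem nn_add (q : QuadraticForm F (κ → F)) (u x y : κ → F) : nn q u (x + y) = nn q u x + nn q u y := by
  refine LinearMap.ext fun v => ?_
  simp only [LinearMap.add_apply, nn_apply, polar_add_left]
  module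

theorem nn_sub (q : QuadraticForm F (κ → F)) (u x y : κ → F) : nn q u (x - y) = nn q u x - nn q u y := by
  refine LinearMap.ext fun v => ?_
  simp only [LinearMap.sub_apply, nn_apply, polar_sub_left]
  module

theorem nn_smul (q : QuadraticForm F (κ → F)) (u x : κ → F) (c : F) : nn q u (c • x) = c • nn q u x := by
  refine LinearMap.ext fun v => ?_
  simp only [LinearMap.smul_apply, nn_apply, polar_smul_left, smul_eq_mul]
  module

theorem cj_siegel {q : QuadraticForm F (κ → F)} {u y : κ → F} (hu : q u = 0) (hy : polar q u y = 0) (l : ι)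
    (T : Module.End F ((ι → κ) → F)) :
    cj (slE l (siegel q u y hu hy)) T =
      (1 + sl l (nn q u y) - q y • sl l (om q u)) * T * (1 - sl l (nn q u y) - q y • sl l (om q u)) := by
  rw [cj_eq_iff, slE_toEnd, siegel_eq hu hy, sl_sub, sl_add, sl_one, sl_smul]
  have h1 : sl (ι := ι) l (nn q u y) * sl l (nn q u y) = (-(2 * q y)) • sl l (om q u) := by
    rw [← sl_mul, nn_sq hu hy, sl_smul]
  have h2 : sl (ι := ι) l (nn q u y) * sl l (om q u) = 0 := by
    rw [← sl_mul, nn_om hu hy, ← slA_apply, map_zero]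
  have h3 : sl (ι := ι) l (om q u) * sl l (nn q u y) = 0 := by
    rw [← sl_mul, om_nn hu hy, ← slA_apply, map_zero]
  have h4 : sl (ι := ι) l (om q u) * sl l (om q u) = 0 := by
    rw [← sl_mul, om_om hu, ← slA_apply, map_zero]
  generalize sl (ι := ι) l (nn q u y) = n at *
  generalize sl (ι := ι) l (om q u) = w at *
  have h5 : (1 - n - q y • w) * (1 + n - q y • w) = 1 := by
    simp only [mul_add, sub_mul, mul_sub, one_mul, mul_one, smul_mul_assoc, mul_smul_comm, h1, h2, h3, h4]
    module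
  rw [mul_assoc ((1 + n - q y • w) * T), h5, mul_one]

variable {q : QuadraticForm F (κ → F)} {u : κ → F}

/-- the even part is in `Z` -/
theorem E2_mem (hu : q u = 0) (l : ι) (Z : AddSubgroup (Module.End F ((ι → κ) → F)))
    (hZ : ∀ (y : κ → F) (hy : polar q u y = 0), ∀ T ∈ Z, cj (slE l (siegel q u y hu hy)) T ∈ Z)
    {T : Module.End F ((ι → κ) → F)} (hT : T ∈ Z) {y : κ → F} (hy : polar q u y = 0) :
    E2 (sl l (om q u)) T (sl l (nn q u y)) (q y) ∈ Z := by
  have hy' : polar q u (-y) = 0 := by rw [polar_neg_right, hy, neg_zero]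
  have h1 := hZ y hy T hT
  have h2 := hZ (-y) hy' T hT
  rw [cj_siegel] at h1 h2
  have h3 : nn q u (-y) = - nn q u y := by
    refine LinearMap.ext fun v => ?_
    simp only [LinearMap.neg_apply, nn_apply, polar_neg_left]
    module
  have h4 : sl (ι := ι) l (nn q u (-y)) = - sl l (nn q u y) := by
    rw [h3, ← slA_apply, map_neg, slA_apply]
  rw [h4, QuadraticMap.map_neg, ← sub_eq_add_neg, sub_neg_eq_add] at h2
  rw [← E2_eq]
  refine Z.sub_mem (Z.add_mem h1 h2) ?_
  rw [two_smul]
  exact Z.add_mem hT hT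

theorem opB (hu : q u = 0) {y : κ → F} (hy : polar q u y = 0) (l : ι)
    (Z : AddSubgroup (Module.End F ((ι → κ) → F)))
    (hZ : ∀ (y : κ → F) (hy : polar q u y = 0), ∀ T ∈ Z, cj (slE l (siegel q u y hu hy)) T ∈ Z)
    {T : Module.End F ((ι → κ) → F)} (hT : T ∈ Z) (h0 : sl l (om q u) * T * sl l (om q u) = 0) :
    (2 : F) • (sl l (nn q u y) * T * sl l (nn q u y) + q y • (sl l (om q u) * T + T * sl l (om q u))) ∈ Z := by
  have h1 := E2_mem hu l Z hZ hT hy
  rw [E2, h0, smul_zero, add_zero, neg_smul] at h1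
  have h2 := Z.neg_mem h1
  rwa [neg_neg] at h2

theorem opA [Finite F] {q : QuadraticForm F (κ → F)} (H : Hyp7 q) {u : κ → F} (hu : q u = 0) (hu0 : u ≠ 0) :
    ∃ r : F, r ≠ 0 ∧ ∀ (l : ι) (Z : AddSubgroup (Module.End F ((ι → κ) → F))),
      (∀ (y : κ → F) (hy : polar q u y = 0), ∀ T ∈ Z, cj (slE l (siegel q u y hu hy)) T ∈ Z) →
      ∀ T ∈ Z, r • (sl l (om q u) * T * sl l (om q u)) ∈ Z := by
  have h8 : (8 : F) ≠ 0 := by
    have : (8 : F) = 2 * 2 * 2 := by norm_num
    rw [this]
    exact mul_ne_zero (mul_ne_zero H.two H.two) H.two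
  by_cases h4 : 4 ≤ Fintype.card κ
  · obtain ⟨x, y, hx, hy, hxy, hqx, hqy⟩ := exists_two H.two H.nd
      (by rw [Module.finrank_fintype_fun_eq_card]; exact h4) hu hu0
    refine ⟨8 * q x * q y, mul_ne_zero (mul_ne_zero h8 hqx) hqy, fun l Z hZ T hT => ?_⟩
    have e1 := E2_mem hu l Z hZ hT hx
    have e2 := E2_mem hu l Z hZ hT hy
    have e3 := E2_mem hu l Z hZ hT (y := x + y) (by rw [polar_add_right, hx, hy, add_zero])
    have e4 := E2_mem hu l Z hZ hT (y := x - y) (by rw [polar_sub_right, hx, hy, sub_zero])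
    have q1 : q (x + y) = q x + q y := by
      have := Q_add (Q := q) x y
      rw [this, hxy, add_zero]
    have q2 : q (x - y) = q x + q y := by
      rw [sub_eq_add_neg]
      have := Q_add (Q := q) x (-y)
      rw [this, polar_neg_right, hxy, QuadraticMap.map_neg, neg_zero, add_zero]
    rw [nn_add, sl_add, q1] at e3
    rw [nn_sub, sl_sub, q2] at e4
    rw [← E2_par]
    exact Z.sub_mem (Z.sub_mem (Z.add_mem e3 e4) (Z.add_mem e1 e1)) (Z.add_mem e2 e2)
  · have h3 : Fintype.card κ = 3 := by have := H.three; omega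
    obtain ⟨c, hc0, hc1⟩ := exists_sq_ne (H.five h3)
    obtain ⟨u', hyp⟩ := LieClassical.OrthTrans.exists_hyp H.nd hu hu0
    obtain ⟨y, hy, -, hqy⟩ := H882.Ten.exists_nonsing_perp H.nd
      (by rw [Module.finrank_fintype_fun_eq_card]; exact H.three) hyp
    have hcc : c * c⁻¹ = 1 := mul_inv_cancel₀ hc0
    have hne : c - c⁻¹ ≠ 0 := by
      intro h
      rw [sub_eq_zero] at h
      apply hc1
      rw [← hcc]
      congr 1
    refine ⟨8 * (c - c⁻¹) * (c - c⁻¹) * q y * q y,
      mul_ne_zero (mul_ne_zero (mul_ne_zero (mul_ne_zero h8 hne) hne) hqy) hqy, fun l Z hZ T hT => ?_⟩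
    have key : ∀ a : F, E2 (sl l (om q u)) T (a • sl l (nn q u y)) (a * a * q y) ∈ Z := by
      intro a
      have h1 := E2_mem hu l Z hZ hT (y := a • y) (by rw [polar_smul_right, hy]; simp)
      rw [nn_smul, sl_smul, QuadraticMap.map_smul, smul_eq_mul] at h1
      exact h1
    rw [← E2_quart _ _ (sl l (nn q u y)) _ _ _ hcc]
    exact Z.sub_mem (Z.sub_mem (Z.sub_mem (key _) (key _)) (key _))
      (Z.sub_mem (Z.sub_mem (key _) (key _)) (key _))

end Cfsg.Agent.H734.C7
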